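import Cfsg.Agent.H23.PGroup4

set_option autoImplicit false
set_option linter.all false

namespace Cfsg.Agent.H22

open scoped commutatorElement

/-- Between normal subgroups `A < B` of a finite `p`-group there is a normal subgroup `L ≥ A`
of index `p` in `B` with `B/L` central. -/
theorem exists_step {G : Type*} [Group G] [Finite G] {p : ℕ} [hp : Fact p.Prime]
    (hP : IsPGroup p G) {A B : Subgroup G} [A.Normal] [B.Normal] (h : A < B) :
    ∃ L : Subgroup G, L.Normal ∧ A ≤ L ∧ L < B ∧ (∀ x ∈ B, ∀ g : G, ⁅x, g⁆ ∈ L) ∧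
      (∀ x ∈ B, x ^ p ∈ L) := by
  classical
  obtain ⟨L, hL, hmax⟩ := Set.Finite.exists_maximal
    (s := {L : Subgroup G | L.Normal ∧ A ≤ L ∧ L < B}) (Set.toFinite _)
    ⟨A, inferInstance, le_rfl, h⟩
  obtain ⟨hLn, hAL, hLB⟩ := hL
  obtain ⟨x, hxB, hxL, hxp, hx⟩ := H23.exists_central_mod hP hLB
  have hKn := H23.normal_sup_zpowers hx
  have hKB : L ⊔ Subgroup.zpowers x ≤ B := sup_le hLB.le (Subgroup.zpowers_le.2 hxB)
  have hK : L ⊔ Subgroup.zpowers x = B := by
    by_contra hne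
    have := hmax ⟨hKn, hAL.trans le_sup_left, lt_of_le_of_ne hKB hne⟩ le_sup_left
    exact hxL (this ((le_sup_right : Subgroup.zpowers x ≤ L ⊔ Subgroup.zpowers x)
      (Subgroup.mem_zpowers x)))
  have hmem : ∀ y ∈ B, ∃ k : ℤ, QuotientGroup.mk' L y = (QuotientGroup.mk' L x) ^ k := by
    intro y hy
    rw [← hK] at hy
    rw [← SetLike.mem_coe, Subgroup.normal_mul] at hy
    obtain ⟨l, hl, z, ⟨k, rfl⟩, rfl⟩ := hy
    refine ⟨k, ?_⟩
    rw [map_mul, ← map_zpow]
    have : QuotientGroup.mk' L l = 1 := by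
      rw [← MonoidHom.mem_ker, QuotientGroup.ker_mk']; exact hl
    rw [this, one_mul]
  refine ⟨L, hLn, hAL, hLB, ?_, ?_⟩
  · intro y hy g
    obtain ⟨k, hk⟩ := hmem y hy
    rw [← QuotientGroup.ker_mk' L, MonoidHom.mem_ker, map_commutatorElement, hk,
      commutatorElement_eq_one_iff_commute]
    apply Commute.zpow_left
    rw [← commutatorElement_eq_one_iff_commute, ← map_commutatorElement, ← MonoidHom.mem_ker,
      QuotientGroup.ker_mk']
    rw [← commutatorElement_inv]
    exact inv_mem (hx g)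
  · intro y hy
    obtain ⟨k, hk⟩ := hmem y hy
    rw [← QuotientGroup.ker_mk' L, MonoidHom.mem_ker, map_pow, hk, ← zpow_natCast, ← zpow_mul,
      mul_comm, zpow_mul, zpow_natCast, ← map_pow]
    have : QuotientGroup.mk' L (x ^ p) = 1 := by
      rw [← MonoidHom.mem_ker, QuotientGroup.ker_mk']; exact hxp
    rw [this, one_zpow]

end Cfsg.Agent.H22
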