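import Mathlib

set_option autoImplicit false
set_option linter.all false

/-! Fixed-point-free automorphisms of order dividing 4 (helper22). -/

namespace Cfsg.Agent.H22.Fpf4

open Subgroup
open scoped commutatorElement

section basic

variable {X : Type*} [Group X] [Finite X] {φ : MulAut X}

theorem exists_comm (M : Subgroup X) (hM : ∀ x ∈ M, φ x ∈ M) (hf : ∀ x, φ x = x → x = 1)
    (m : X) (hm : m ∈ M) : ∃ x ∈ M, m = x⁻¹ * φ x := by
  let f : M → M := fun x => ⟨(x : X)⁻¹ * φ x, M.mul_mem (M.inv_mem x.2) (hM _ x.2)⟩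
  have hinj : Function.Injective f := by
    intro x y h
    have h1 : (x : X)⁻¹ * φ x = (y : X)⁻¹ * φ y := congrArg Subtype.val h
    have h2 : φ ((x : X) * (y : X)⁻¹) = x * (y : X)⁻¹ := by
      rw [map_mul, map_inv]
      have h3 : φ (x : X) = x * ((y : X)⁻¹ * φ y) := by rw [← h1]; group
      rw [h3]; group
    have h3 := hf _ h2
    exact Subtype.ext (mul_inv_eq_one.1 h3)
  obtain ⟨x, hx⟩ := (Finite.injective_iff_surjective.1 hinj) ⟨m, hm⟩
  exact ⟨x, x.2, (congrArg Subtype.val hx).symm⟩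

theorem fix_lift (N : Subgroup X) (hN : ∀ x ∈ N, φ x ∈ N) (hf : ∀ x, φ x = x → x = 1)
    {g : X} (hg : g⁻¹ * φ g ∈ N) : g ∈ N := by
  obtain ⟨y, hy, h1⟩ := exists_comm N hN hf _ hg
  have h2 : φ (g * y⁻¹) = g * y⁻¹ := by
    rw [map_mul, map_inv]
    have h3 : φ g = g * (y⁻¹ * φ y) := by rw [← h1]; group
    rw [h3]; group
  have h3 := hf _ h2
  rw [mul_inv_eq_one.1 h3]; exact hy

theorem odd_card (h4 : φ ^ 4 = 1) (hf : ∀ x, φ x = x → x = 1) : Odd (Nat.card X) := by
  haveI : Fact (Nat.Prime 2) := ⟨Nat.prime_two⟩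
  have hP : IsPGroup 2 (zpowers φ) := by
    rintro ⟨g, hg⟩
    obtain ⟨k, rfl⟩ := mem_zpowers_iff.1 hg
    refine ⟨2, Subtype.ext ?_⟩
    show (φ ^ k) ^ (2 ^ 2) = 1
    rw [← zpow_natCast, ← zpow_mul, mul_comm, zpow_mul]
    norm_num [h4]
  have h1 := hP.card_modEq_card_fixedPoints X
  have h2 : Nat.card (MulAction.fixedPoints (zpowers φ) X) = 1 := by
    rw [Nat.card_eq_one_iff_unique]
    refine ⟨⟨fun a b => ?_⟩, ⟨⟨1, fun g => ?_⟩⟩⟩
    · have ha := hf _ (a.2 ⟨φ, mem_zpowers φ⟩)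
      have hb := hf _ (b.2 ⟨φ, mem_zpowers φ⟩)
      exact Subtype.ext (ha.trans hb.symm)
    · show (g : MulAut X) 1 = 1
      exact map_one _
  rw [h2] at h1
  exact Nat.odd_iff.2 h1

theorem sq_eq_one {x : X} (hodd : Odd (Nat.card X)) (hx : x * x = 1) : x = 1 := by
  have h1 : orderOf x ∣ 2 := orderOf_dvd_of_pow_eq_one (by rw [sq]; exact hx)
  have h2 : orderOf x ∣ Nat.card X := orderOf_dvd_natCard x
  rw [← orderOf_eq_one_iff]
  rcases (Nat.dvd_prime Nat.prime_two).1 h1 with h | h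
  · exact h
  · rw [h] at h2
    obtain ⟨k, hk⟩ := hodd
    omega

end basic

section lin

variable {X : Type*} [Group X] [Finite X] {φ : MulAut X} {V : Type*} [CommGroup V] [Finite V]
  {ρ : X →* MulAut V} {s : MulAut V}

/-- the setting -/
structure Sett (φ : MulAut X) (ρ : X →* MulAut V) (s : MulAut V) : Prop where
  inj : Function.Injective ρ
  rel : ∀ x, ρ (φ x) = s * ρ x * s⁻¹
  s4 : s ^ 4 = 1
  fX : ∀ x, φ x = x → x = 1
  fV : ∀ v, s v = v → v = 1

namespace Sett

variable (h : Sett φ ρ s)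

include h

theorem rel' (x : X) (v : V) : s (ρ x v) = ρ (φ x) (s v) := by
  rw [h.rel]
  simp

theorem phi4 : φ ^ 4 = 1 := by
  ext x
  apply h.inj
  have h1 : ∀ n : ℕ, ρ ((φ ^ n) x) = s ^ n * ρ x * (s ^ n)⁻¹ := by
    intro n
    induction n with
    | zero => simp
    | succ n ih =>
      rw [pow_succ', MulAut.mul_apply, h.rel, ih, pow_succ']
      group
  rw [h1 4, h.s4]; simp

theorem oddX : Odd (Nat.card X) := odd_card h.phi4 h.fX

theorem trace (v : V) : v * s v * s (s v) * s (s (s v)) = 1 := by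
  apply h.fV
  have h4 : s (s (s (s v))) = v := by
    have := congrArg (fun f : MulAut V => f v) h.s4
    simpa [pow_succ] using this
  rw [map_mul, map_mul, map_mul, h4]
  ac_rfl

theorem sum_trick {B : Subgroup X} [Fintype B] (hB : ∀ b ∈ B, φ (φ b) = b⁻¹)
    (hBφ : ∀ b ∈ B, φ b ∈ B) (hBc : ∀ a ∈ B, ∀ b ∈ B, a * b = b * a) {b' : X} (hb' : b' ∈ B)
    (w : V) : ρ b' (w ^ Fintype.card B) = w ^ Fintype.card B := by
  classical
  -- products over `B` are fixed
  have hfix : ∀ x : V, ρ b' (∏ c : B, ρ c x) = ∏ c : B, ρ c x := by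
    intro x
    rw [map_prod]
    rw [← Equiv.prod_comp (Equiv.mulLeft (⟨b', hb'⟩ : B)) (fun c : B => ρ c x)]
    refine Finset.prod_congr rfl fun c _ => ?_
    simp [map_mul]
  have key : ∀ (ψ : MulAut X) (t : MulAut V), (∀ x v, t (ρ x v) = ρ (ψ x) (t v)) →
      (∀ b ∈ B, ψ b ∈ B) → (∀ b ∈ B, ψ b = b → b = 1) →
      ∏ b : B, ρ b (t (ρ (b : X)⁻¹ w)) = ∏ c : B, ρ c (t w) := by
    intro ψ t ht hψ hψf
    let e : B → B := fun b => ⟨(b : X) * (ψ b)⁻¹, B.mul_mem b.2 (B.inv_mem (hψ _ b.2))⟩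
    have he : Function.Bijective e := by
      rw [← Finite.injective_iff_bijective]
      intro a b hab
      have h1 : (a : X) * (ψ a)⁻¹ = b * (ψ b)⁻¹ := congrArg Subtype.val hab
      have h2 : ψ ((b : X)⁻¹ * a) = (b : X)⁻¹ * a := by
        rw [map_mul, map_inv]
        have h3 : (b : X)⁻¹ * a = (ψ b)⁻¹ * ψ a := by
          calc (b : X)⁻¹ * a = (b : X)⁻¹ * ((a * (ψ a)⁻¹) * ψ a) := by group
            _ = (b : X)⁻¹ * ((b * (ψ b)⁻¹) * ψ a) := by rw [h1]
            _ = _ := by group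
        exact h3.symm
      have h3 := hψf _ (B.mul_mem (B.inv_mem b.2) a.2) h2
      exact Subtype.ext (inv_mul_eq_one.1 h3).symm
    rw [← Function.Bijective.prod_comp he (fun c : B => ρ c (t w))]
    refine Finset.prod_congr rfl fun b _ => ?_
    rw [ht]
    show ρ b (ρ (ψ (b : X)⁻¹) (t w)) = ρ ((b : X) * (ψ b)⁻¹) (t w)
    rw [map_inv ψ, map_mul]
    rfl
  have hφ2 : ∀ b ∈ B, φ (φ b) = b → b = 1 := by
    intro b hb hb2
    rw [hB b hb] at hb2
    refine sq_eq_one h.oddX ?_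
    nth_rw 1 [← hb2]
    exact inv_mul_cancel b
  have k1 := key φ s h.rel' hBφ (fun b _ hb => h.fX b hb)
  have k2 := key (φ * φ) (s * s) (fun x v => by
    show s (s (ρ x v)) = ρ (φ (φ x)) (s (s v))
    rw [h.rel', h.rel']) (fun b hb => hBφ _ (hBφ _ hb)) hφ2
  have k3 := key (φ * φ * φ) (s * s * s) (fun x v => by
    show s (s (s (ρ x v))) = ρ (φ (φ (φ x))) (s (s (s v)))
    rw [h.rel', h.rel', h.rel']) (fun b hb => hBφ _ (hBφ _ (hBφ _ hb))) (fun b _ hb => by
      have e : φ (φ (φ (φ b))) = b := by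
        have := congrArg (fun f : MulAut X => f b) h.phi4
        simpa [pow_succ] using this
      have hb' : φ (φ (φ b)) = b := hb
      apply h.fX
      rw [hb'] at e
      exact e)
  have k0 : ∏ b : B, ρ b (ρ (b : X)⁻¹ w) = w ^ Fintype.card B := by
    have : ∀ b : B, ρ b (ρ (b : X)⁻¹ w) = w := by
      intro b
      rw [map_inv ρ]
      exact MulEquiv.apply_symm_apply _ _
    rw [Finset.prod_congr rfl fun b _ => this b, Finset.prod_const, Finset.card_univ]
  have hprod : (∏ b : B, ρ b (ρ (b : X)⁻¹ w)) * (∏ b : B, ρ b (s (ρ (b : X)⁻¹ w))) *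
      (∏ b : B, ρ b ((s * s) (ρ (b : X)⁻¹ w))) * (∏ b : B, ρ b ((s * s * s) (ρ (b : X)⁻¹ w))) =
        1 := by
    rw [← Finset.prod_mul_distrib, ← Finset.prod_mul_distrib, ← Finset.prod_mul_distrib]
    refine Finset.prod_eq_one fun b _ => ?_
    rw [← map_mul, ← map_mul, ← map_mul]
    have := h.trace (ρ (b : X)⁻¹ w)
    show ρ b (ρ (b : X)⁻¹ w * s (ρ (b : X)⁻¹ w) * s (s (ρ (b : X)⁻¹ w)) *
      s (s (s (ρ (b : X)⁻¹ w)))) = 1
    rw [this, map_one]
  rw [k0, k1, k2, k3] at hprod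
  have h5 : w ^ Fintype.card B = ((∏ c : B, ρ c (s w)) * (∏ c : B, ρ c ((s * s) w)) *
      (∏ c : B, ρ c ((s * s * s) w)))⁻¹ := by
    rw [eq_inv_iff_mul_eq_one, ← hprod]
    ac_rfl
  rw [h5, map_inv, map_mul, map_mul, hfix, hfix, hfix]

omit h [Finite X] in
theorem eq_one_of_pow {n : ℕ} (hn : n.Coprime (Nat.card V)) {v : V} (hv : v ^ n = 1) : v = 1 := by
  have h1 : orderOf v ∣ n := orderOf_dvd_of_pow_eq_one hv
  have h2 : orderOf v ∣ Nat.card V := orderOf_dvd_natCard v
  exact orderOf_eq_one_iff.1 (Nat.eq_one_of_dvd_coprimes hn h1 h2)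

/-- Claim 1 -/
theorem claim1 {N : Subgroup X} (hNφ : ∀ n ∈ N, φ n ∈ N)
    (hNc : ∀ a ∈ N, ∀ b ∈ N, a * b = b * a) (hcop : (Nat.card N).Coprime (Nat.card V)) :
    ∀ n ∈ N, φ (φ n) = n := by
  classical
  let B : Subgroup X :=
    { carrier := {b | b ∈ N ∧ φ (φ b) = b⁻¹}
      one_mem' := ⟨N.one_mem, by simp⟩
      mul_mem' := by
        rintro a b ⟨ha, ha'⟩ ⟨hb, hb'⟩
        refine ⟨N.mul_mem ha hb, ?_⟩
        rw [map_mul, map_mul, ha', hb', hNc a ha b hb]
        group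
      inv_mem' := by
        rintro a ⟨ha, ha'⟩
        refine ⟨N.inv_mem ha, ?_⟩
        rw [map_inv, map_inv, ha'] }
  have hBN : B ≤ N := fun b hb => hb.1
  letI : Fintype B := Fintype.ofFinite B
  have hB1 : ∀ b ∈ B, b = 1 := by
    intro b' hb'
    apply h.inj
    rw [map_one]
    ext w
    have h1 := h.sum_trick (B := B) (fun b hb => hb.2) (fun b hb => ⟨hNφ _ hb.1, by
      rw [hb.2, map_inv]⟩) (fun a ha b hb => hNc a ha.1 b hb.1) hb' w
    have h2 : (ρ b' w * w⁻¹) ^ Fintype.card B = 1 := by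
      rw [mul_pow, inv_pow, ← map_pow, h1, mul_inv_cancel]
    have h3 : (Fintype.card B).Coprime (Nat.card V) := by
      rw [← Nat.card_eq_fintype_card]
      exact Nat.Coprime.coprime_dvd_left (Subgroup.card_dvd_of_le hBN) hcop
    exact mul_inv_eq_one.1 (eq_one_of_pow h3 h2)
  intro n hn
  have h1 : n * (φ (φ n))⁻¹ ∈ B := by
    refine ⟨N.mul_mem hn (N.inv_mem (hNφ _ (hNφ _ hn))), ?_⟩
    have e : φ (φ (φ (φ n))) = n := by
      have := congrArg (fun f : MulAut X => f n) h.phi4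
      simpa [pow_succ] using this
    rw [map_mul, map_mul, map_inv, map_inv, e]
    group
  exact (mul_inv_eq_one.1 (hB1 _ h1)).symm

theorem inv_of_sq {n : X} (hn : φ (φ n) = n) (hc : n * φ n = φ n * n) : φ n = n⁻¹ := by
  have h1 : φ (n * φ n) = n * φ n := by rw [map_mul, hn, ← hc]
  exact eq_inv_of_mul_eq_one_right (h.fX _ h1)

theorem inv_of_sqV {v : V} (hv : s (s v) = v) : s v = v⁻¹ := by
  have h1 : s (v * s v) = v * s v := by rw [map_mul, hv, mul_comm]
  exact eq_inv_of_mul_eq_one_right (h.fV _ h1)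

/-- Claim 1' -/
theorem le_center {N : Subgroup X} [hN : N.Normal] (hNφ : ∀ n ∈ N, φ n ∈ N)
    (hNc : ∀ a ∈ N, ∀ b ∈ N, a * b = b * a) (hcop : (Nat.card N).Coprime (Nat.card V)) :
    N ≤ center X := by
  have h1 := h.claim1 hNφ hNc hcop
  intro n hn
  rw [mem_center_iff]
  intro g
  obtain ⟨x, -, rfl⟩ := exists_comm (φ := φ) ⊤ (fun _ _ => mem_top _) h.fX g (mem_top g)
  have hinv : ∀ m ∈ N, φ m = m⁻¹ := fun m hm => h.inv_of_sq (h1 m hm) (hNc _ hm _ (hNφ _ hm))
  -- conj by `x` and by `φ x` agree on `N`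
  have e1 : ∀ m ∈ N, φ x * m * (φ x)⁻¹ = x * m * x⁻¹ := by
    intro m hm
    have h2 : φ (x * m * x⁻¹) = (x * m * x⁻¹)⁻¹ := hinv _ (hN.conj_mem m hm x)
    rw [map_mul, map_mul, map_inv, hinv m hm] at h2
    have h3 : (φ x * m * (φ x)⁻¹)⁻¹ = (x * m * x⁻¹)⁻¹ := by rw [← h2]; group
    exact inv_injective h3
  have e2 := e1 n hn
  have e3 : x⁻¹ * φ x * n * (x⁻¹ * φ x)⁻¹ = n := by
    calc x⁻¹ * φ x * n * (x⁻¹ * φ x)⁻¹ = x⁻¹ * (φ x * n * (φ x)⁻¹) * x := by group
      _ = x⁻¹ * (x * n * x⁻¹) * x := by rw [e2]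
      _ = n := by group
  exact mul_inv_eq_iff_eq_mul.1 e3

/-- the main linear result -/
theorem comm_of_coprime (hsol : Group.IsSolvable X)
    (hcop : ∀ N : Subgroup X, N.Normal → (∀ n ∈ N, φ n ∈ N) →
      (∀ a ∈ N, ∀ b ∈ N, a * b = b * a) → (Nat.card N).Coprime (Nat.card V)) :
    ∀ x y : X, x * y = y * x := by
  classical
  by_contra hna
  have hZφ : ∀ n ∈ center X, φ n ∈ center X := by
    intro n hn
    rw [mem_center_iff] at hn ⊢
    intro g
    have := congrArg φ (hn (φ.symm g))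
    rw [map_mul, map_mul, MulEquiv.apply_symm_apply] at this
    exact this
  have hZcop := hcop (center X) inferInstance hZφ fun a ha b _ => (mem_center_iff.1 ha b).symm
  have hZ2 := h.claim1 hZφ (fun a ha b _ => (mem_center_iff.1 ha b).symm) hZcop
  have hZinv : ∀ z ∈ center X, φ z = z⁻¹ := fun z hz =>
    h.inv_of_sq (hZ2 z hz) (mem_center_iff.1 hz (φ z)).symm
  -- the subgroup `M`
  obtain ⟨k, hk1, hk2⟩ : ∃ k, ¬ derivedSeries X k ≤ center X ∧
      derivedSeries X (k + 1) ≤ center X := by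
    by_contra hcon
    push Not at hcon
    have hall : ∀ n, ¬ derivedSeries X n ≤ center X := by
      intro n
      induction n with
      | zero =>
        intro h0
        apply hna
        intro x y
        have hx : x ∈ center X := h0 (by rw [derivedSeries_zero]; exact mem_top x)
        exact (mem_center_iff.1 hx y).symm
      | succ n ih => exact hcon n ih
    obtain ⟨n, hn⟩ := hsol
    exact hall n (by rw [hn]; exact bot_le)
  set M := derivedSeries X k with hM
  have hMn : M.Normal := derivedSeries_normal X k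
  have hMch : M.Characteristic := derivedSeries_characteristic X k
  have hMφ : ∀ m ∈ M, φ m ∈ M := fun m hm => by
    have := (Subgroup.characteristic_iff_map_eq.1 hMch φ)
    rw [← this]
    exact mem_map_of_mem φ.toMonoidHom hm
  have hMM : ∀ a ∈ M, ∀ b ∈ M, ⁅a, b⁆ ∈ center X := by
    intro a ha b hb
    apply hk2
    rw [derivedSeries_succ]
    exact commutator_mem_commutator ha hb
  -- `Z` centralizes `C_V(s²)`
  have hZV : ∀ z ∈ center X, ∀ v, s (s v) = v → ρ z v = v := by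
    intro z hz v hv
    have h1 : s (s (ρ z v)) = ρ z v := by rw [h.rel', h.rel', hZ2 z hz, hv]
    have h2 := h.inv_of_sqV h1
    rw [h.rel', hZinv z hz, h.inv_of_sqV hv, map_inv (ρ z⁻¹)] at h2
    have h3 : ρ z⁻¹ v = ρ z v := inv_injective h2
    have h4 : ρ (z * z) v = v := by
      rw [map_mul]
      show ρ z (ρ z v) = v
      rw [← h3, map_inv ρ]
      exact MulEquiv.apply_symm_apply _ _
    -- `z` has odd order
    obtain ⟨m, hm⟩ := h.oddX
    have h5 : z = (z * z) ^ (m + 1) := by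
      have : z ^ Nat.card X = 1 := pow_card_eq_one'
      rw [← sq, ← pow_mul]
      calc z = z ^ (2 * m + 1) * z := by rw [← hm, this, one_mul]
        _ = z ^ (2 * (m + 1)) := by rw [← pow_succ]; congr 1
    rw [h5, map_pow]
    have : ∀ n : ℕ, ((ρ (z * z)) ^ n) v = v := by
      intro n
      induction n with
      | zero => simp
      | succ n ih => rw [pow_succ, MulAut.mul_apply, h4, ih]
    exact this _
  letI : Fintype (center X) := Fintype.ofFinite _
  -- the trace of `Z`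
  let T : V → V := fun v => ∏ z : center X, ρ z v
  have hTfix : ∀ z ∈ center X, ∀ v, ρ z (T v) = T v := by
    intro z hz v
    show ρ z (∏ z' : center X, ρ z' v) = ∏ z' : center X, ρ z' v
    rw [map_prod, ← Equiv.prod_comp (Equiv.mulLeft (⟨z, hz⟩ : center X)) (fun c => ρ c v)]
    refine Finset.prod_congr rfl fun c _ => ?_
    simp [map_mul]
  have hTfixed : ∀ v, (∀ z ∈ center X, ρ z v = v) → T v = v ^ Fintype.card (center X) := by
    intro v hv
    show ∏ z : center X, ρ z v = _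
    rw [Finset.prod_congr rfl fun (z : center X) _ => hv z z.2, Finset.prod_const, Finset.card_univ]
  have hTmul : ∀ v w, T (v * w) = T v * T w := by
    intro v w
    show ∏ z : center X, ρ z (v * w) = _
    rw [Finset.prod_congr rfl fun (z : center X) _ => map_mul (ρ z) v w, Finset.prod_mul_distrib]
  have hTx : ∀ x v, T (ρ x v) = ρ x (T v) := by
    intro x v
    show ∏ z : center X, ρ z (ρ x v) = ρ x (∏ z : center X, ρ z v)
    rw [map_prod]
    refine Finset.prod_congr rfl fun z _ => ?_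
    have : (z : X) * x = x * z := (mem_center_iff.1 z.2 x).symm
    show (ρ z * ρ x) v = (ρ x * ρ z) v
    rw [← map_mul, ← map_mul, this]
  have hTs : ∀ v, T (s v) = s (T v) := by
    intro v
    show ∏ z : center X, ρ z (s v) = s (∏ z : center X, ρ z v)
    rw [map_prod]
    let e : center X ≃ center X := Equiv.ofBijective (fun z => ⟨φ z, hZφ z z.2⟩) (by
      rw [← Finite.injective_iff_bijective]
      intro a b hab
      exact Subtype.ext (φ.injective (congrArg Subtype.val hab)))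
    rw [← Equiv.prod_comp e (fun z => ρ z (s v))]
    refine Finset.prod_congr rfl fun z _ => ?_
    rw [h.rel']
    rfl
  have hZcard : (Fintype.card (center X)).Coprime (Nat.card V) := by
    rw [← Nat.card_eq_fintype_card]; exact hZcop
  -- `V₀ = ker T`; `s² = -1` on `V₀`
  have hV0 : ∀ v, T v = 1 → s (s v) = v⁻¹ := by
    intro v hv
    have h1 : s (s (v * s (s v))) = v * s (s v) := by
      have e : s (s (s (s v))) = v := by
        have := congrArg (fun f : MulAut V => f v) h.s4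
        simpa [pow_succ] using this
      rw [map_mul, map_mul, e, mul_comm]
    have h2 : ∀ z ∈ center X, ρ z (v * s (s v)) = v * s (s v) := fun z hz => hZV z hz _ h1
    have h3 := hTfixed _ h2
    rw [hTmul, hTs, hTs, hv, map_one, map_one, mul_one] at h3
    have h4 := eq_one_of_pow hZcard h3.symm
    exact eq_inv_of_mul_eq_one_right h4
  have hT1 : ∀ v, T (v ^ Fintype.card (center X) * (T v)⁻¹) = 1 := by
    intro v
    let Th : V →* V := MonoidHom.mk' T hTmul
    have e1 : T (v ^ Fintype.card (center X) * (T v)⁻¹) =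
        (T v) ^ Fintype.card (center X) * (T (T v))⁻¹ := by
      show Th _ = _
      rw [map_mul, map_pow, map_inv]
      rfl
    rw [e1, hTfixed (T v) (fun z hz => hTfix z hz v), mul_inv_cancel]
  -- the kernel `K` of `M` on `V₀`
  let K : Set X := {x | ∀ v, T v = 1 → ρ x v = v}
  have hK1 : ∀ x : X, ∀ v, T v = 1 → ρ (φ (φ x)) v = ρ x v := by
    intro x v hv
    have h1 : T (ρ x v) = 1 := by rw [hTx, hv, map_one]
    have h2 := hV0 _ h1
    rw [h.rel', h.rel', hV0 v hv, map_inv] at h2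
    exact inv_injective h2
  -- every element of `M` is inverted by `φ` modulo `K`
  have hTφ : ∀ x v, T v = 1 → T (ρ x v) = 1 := fun x v hv => by rw [hTx, hv, map_one]
  have hK2 : ∀ m ∈ M, ∀ v, T v = 1 → ρ (φ m) v = ρ m⁻¹ v := by
    intro m hm v hv
    obtain ⟨x, hx, rfl⟩ := exists_comm M hMφ h.fX m hm
    rw [map_mul φ, map_inv φ, map_mul ρ, mul_inv_rev, inv_inv, map_mul ρ]
    show ρ (φ x)⁻¹ (ρ (φ (φ x)) v) = ρ (φ x)⁻¹ (ρ x v)
    rw [hK1 x v hv]
  have hK3 : ∀ a ∈ M, ∀ b ∈ M, ∀ v, T v = 1 → ρ (a * b) v = ρ (b * a) v := by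
    intro a ha b hb v hv
    have h1 : ρ (φ (b⁻¹ * a⁻¹)) v = ρ (b⁻¹ * a⁻¹)⁻¹ v :=
      hK2 _ (M.mul_mem (M.inv_mem hb) (M.inv_mem ha)) v hv
    have h2 : ρ (φ (b⁻¹ * a⁻¹)) v = ρ (b * a) v := by
      rw [map_mul φ, map_mul ρ, map_mul ρ]
      show ρ (φ b⁻¹) (ρ (φ a⁻¹) v) = ρ b (ρ a v)
      rw [hK2 _ (M.inv_mem ha) v hv, inv_inv, hK2 _ (M.inv_mem hb) _ (hTφ a v hv), inv_inv]
    rw [← h2, h1]
    congr 2
    group
  -- commutators of `M` are trivial
  have hMc : ∀ a ∈ M, ∀ b ∈ M, a * b = b * a := by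
    intro a ha b hb
    set c := ⁅a, b⁆ with hc
    have hcZ := hMM a ha b hb
    have h1 : ∀ v, T v = 1 → ρ c v = v := by
      intro v hv
      have e : c = a * b * (b * a)⁻¹ := by rw [hc, commutatorElement_def]; group
      rw [e, map_mul]
      show ρ (a * b) (ρ (b * a)⁻¹ v) = v
      rw [hK3 a ha b hb _ (hTφ _ v hv), map_inv ρ (b * a)]
      exact MulEquiv.apply_symm_apply _ _
    have h2 : c = 1 := by
      apply h.inj
      rw [map_one]
      ext v
      have e1 := h1 _ (hT1 v)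
      rw [map_mul, map_inv, hTfix c hcZ, map_pow] at e1
      have e2 := mul_right_cancel e1
      have e3 : (ρ c v * v⁻¹) ^ Fintype.card (center X) = 1 := by
        rw [mul_pow, inv_pow, e2, mul_inv_cancel]
      exact mul_inv_eq_one.1 (eq_one_of_pow hZcard e3)
    exact (commutatorElement_eq_one_iff_mul_comm).1 h2
  exact hk1 (h.le_center hMφ hMc (hcop M hMn hMφ hMc))

end Sett

end lin

end Cfsg.Agent.H22.Fpf4
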