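import Cfsg.Agent.H22.JanF
import Cfsg.Agent.H15.StemRed

set_option autoImplicit false
set_option linter.all false
set_option maxRecDepth 100000

/-! The Janko group J1: the Schur multiplier. -/

namespace Cfsg.Agent.H22.J1

open Cfsg.Spor (jankoX jankoY)
open Subgroup
open Cfsg.Agent.H15.PExtN

/-- the involutions of a Sylow 2-subgroup -/
def eJ (k : ℕ) : ↥Cfsg.Spor.J1 := XJ ^ k * wJ w2 * (XJ ^ k)⁻¹

def eN (k : ℕ) : ℕ := mul (mul (npw cX k) (wN w2)) (npw cX (7 - k))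

theorem code_eJ {k : ℕ} (hk : k ≤ 7) : code ((eJ k : ↥Cfsg.Spor.J1) : GG) = eN k := by
  have e : (jankoX ^ k)⁻¹ = jankoX ^ (7 - k) := by
    rw [inv_eq_iff_mul_eq_one, ← pow_add]
    have : k + (7 - k) = 7 := by omega
    rw [this, X_pow]
  have h : ((eJ k : ↥Cfsg.Spor.J1) : GG) = jankoX ^ k * wG w2 * (jankoX ^ k)⁻¹ := rfl
  rw [h, e, code_mul, code_mul, code_pow, code_pow, code_X, code_w]
  rfl

theorem e_mul {i j k : ℕ} (hi : i ≤ 7) (hj : j ≤ 7) (hk : k ≤ 7) (h : Nat.beq (mul (eN i) (eN j)) (eN k) = true) :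
    eJ i * eJ j = eJ k := by
  apply Subtype.ext
  apply eq_of_code
  rw [Subgroup.coe_mul, code_mul, code_eJ hi, code_eJ hj, code_eJ hk]
  exact Nat.eq_of_beq_eq_true h

theorem e_sq : eJ 0 * eJ 0 = 1 := by
  apply Subtype.ext
  apply eq_of_code
  rw [Subgroup.coe_mul, code_mul, code_eJ (by norm_num), Subgroup.coe_one, code_one]
  decide +kernel

theorem e01 : eJ 0 * eJ 1 = eJ 5 := e_mul (by norm_num) (by norm_num) (by norm_num) (by decide +kernel)
theorem e10 : eJ 1 * eJ 0 = eJ 5 := e_mul (by norm_num) (by norm_num) (by norm_num) (by decide +kernel)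
theorem e02 : eJ 0 * eJ 2 = eJ 3 := e_mul (by norm_num) (by norm_num) (by norm_num) (by decide +kernel)
theorem e20 : eJ 2 * eJ 0 = eJ 3 := e_mul (by norm_num) (by norm_num) (by norm_num) (by decide +kernel)
theorem e12 : eJ 1 * eJ 2 = eJ 6 := e_mul (by norm_num) (by norm_num) (by norm_num) (by decide +kernel)
theorem e21 : eJ 2 * eJ 1 = eJ 6 := e_mul (by norm_num) (by norm_num) (by norm_num) (by decide +kernel)
theorem e52 : eJ 5 * eJ 2 = eJ 4 := e_mul (by norm_num) (by norm_num) (by norm_num) (by decide +kernel)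

theorem X_e (k : ℕ) : XJ ^ k * eJ 0 = eJ k * XJ ^ k := by
  unfold eJ; group

/-- every element of the Sylow 2-subgroup is in the closure -/
theorem closure_e : ∃ P : Sylow 2 ↥Cfsg.Spor.J1, (P : Subgroup ↥Cfsg.Spor.J1) ≤ Subgroup.closure {eJ 0, eJ 1, eJ 2} := by
  obtain ⟨K, hK, hKm, hc⟩ := exists_E
  have h1 : Nat.card (K.subgroupOf Cfsg.Spor.J1) = 2 ^ (Nat.card ↥Cfsg.Spor.J1).factorization 2 := by
    rw [fact_J1 2 3 (fac_eq 2 3 21945 Nat.prime_two (by norm_num) (by norm_num)), Nat.card_congr (subgroupOfEquivOfLe hK).toEquiv, hc]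
    norm_num
  refine ⟨Sylow.ofCard _ h1, ?_⟩
  intro x hx
  have hx' : (x : GG) ∈ K := mem_subgroupOf.mp hx
  have m0 : eJ 0 ∈ Subgroup.closure {eJ 0, eJ 1, eJ 2} := subset_closure (Or.inl rfl)
  have m1 : eJ 1 ∈ Subgroup.closure {eJ 0, eJ 1, eJ 2} := subset_closure (Or.inr (Or.inl rfl))
  have m2 : eJ 2 ∈ Subgroup.closure {eJ 0, eJ 1, eJ 2} := subset_closure (Or.inr (Or.inr rfl))
  have m3 : eJ 3 ∈ Subgroup.closure {eJ 0, eJ 1, eJ 2} := by rw [← e02]; exact mul_mem m0 m2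
  have m5 : eJ 5 ∈ Subgroup.closure {eJ 0, eJ 1, eJ 2} := by rw [← e01]; exact mul_mem m0 m1
  have m6 : eJ 6 ∈ Subgroup.closure {eJ 0, eJ 1, eJ 2} := by rw [← e12]; exact mul_mem m1 m2
  have m4 : eJ 4 ∈ Subgroup.closure {eJ 0, eJ 1, eJ 2} := by rw [← e52]; exact mul_mem m5 m2
  have key : ∀ (k : ℕ) (l : List Bool), k ≤ 7 → Nat.beq (wN l) (eN k) = true → code (x : GG) = wN l →
      eJ k ∈ Subgroup.closure {eJ 0, eJ 1, eJ 2} → x ∈ Subgroup.closure {eJ 0, eJ 1, eJ 2} := by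
    intro k l hk h1 h2 h3
    have : x = eJ k := by
      apply Subtype.ext
      apply eq_of_code
      rw [code_eJ hk, h2]
      exact Nat.eq_of_beq_eq_true h1
    rw [this]; exact h3
  obtain ⟨l, hl, e⟩ := List.mem_map.mp ((hKm _).mp hx')
  unfold Ew at hl
  simp only [List.mem_cons, List.not_mem_nil, or_false] at hl
  rcases hl with rfl | rfl | rfl | rfl | rfl | rfl | rfl | rfl
  · have : x = 1 := by
      apply Subtype.ext
      apply eq_of_code
      rw [← e, Subgroup.coe_one, code_one]; rfl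
    rw [this]; exact one_mem _
  · exact key 0 _ (by norm_num) (by decide +kernel) e.symm m0
  · exact key 1 _ (by norm_num) (by decide +kernel) e.symm m1
  · exact key 2 _ (by norm_num) (by decide +kernel) e.symm m2
  · exact key 3 _ (by norm_num) (by decide +kernel) e.symm m3
  · exact key 4 _ (by norm_num) (by decide +kernel) e.symm m4
  · exact key 5 _ (by norm_num) (by decide +kernel) e.symm m5
  · exact key 6 _ (by norm_num) (by decide +kernel) e.symm m6

theorem schur2 {E : Type*} [Group E] [Finite E] {τ : E →* ↥Cfsg.Spor.J1} {z : E} (h : PExt 2 τ z) : z ∉ commutator E := by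
  have hLS0 : PExt.LS τ (eJ 0) := by
    refine h.LS_pure (a := eJ 0) (b := eJ 1) (c := eJ 2) (e01.trans e10.symm) (e02.trans e20.symm) (e12.trans e21.symm) e_sq
      (XJ ^ 1) (XJ ^ 2) (XJ ^ 5) (XJ ^ 3) (XJ ^ 6) (XJ ^ 4) (X_e 1) (X_e 2) ?_ ?_ ?_ ?_
    · rw [e01]; exact X_e 5
    · rw [e02]; exact X_e 3
    · rw [e12]; exact X_e 6
    · rw [e01, e52]; exact X_e 4
  have hLS : ∀ k, PExt.LS τ (eJ k) := fun k => h.LS_conj hLS0 (X_e k)
  obtain ⟨x, hx⟩ := h.surj (eJ 0)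
  obtain ⟨y, hy⟩ := h.surj (eJ 1)
  obtain ⟨w, hw⟩ := h.surj (eJ 2)
  have c1 : x * y = y * x := h.cm_of_LS (hx ▸ hLS 0) (hy ▸ hLS 1) (by rw [hx, hy, e01]; exact hLS 5)
  have c2 : x * w = w * x := h.cm_of_LS (hx ▸ hLS 0) (hw ▸ hLS 2) (by rw [hx, hw, e02]; exact hLS 3)
  have c3 : y * w = w * y := h.cm_of_LS (hy ▸ hLS 1) (hw ▸ hLS 2) (by rw [hy, hw, e12]; exact hLS 6)
  refine h.not_mem_of_comm Nat.prime_two {x, y, w} ?_ ?_
  · rintro a (rfl | rfl | rfl) b (rfl | rfl | rfl)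
    · rfl
    · exact c1
    · exact c2
    · exact c1.symm
    · rfl
    · exact c3
    · exact c2.symm
    · exact c3.symm
    · rfl
  · rw [MonoidHom.map_closure, Set.image_insert_eq, Set.image_pair, hx, hy, hw]
    obtain ⟨P, hP⟩ := closure_e
    have h2 : (Subgroup.closure {eJ 0, eJ 1, eJ 2}).index ∣ (P : Subgroup ↥Cfsg.Spor.J1).index := Subgroup.index_dvd_of_le hP
    have h3 : ¬ 2 ∣ (P : Subgroup ↥Cfsg.Spor.J1).index := P.not_dvd_index
    have h4 : ¬ 2 ∣ (Subgroup.closure {eJ 0, eJ 1, eJ 2}).index := fun h5 => h3 (h5.trans h2)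
    exact ((Nat.Prime.coprime_iff_not_dvd Nat.prime_two).mpr h4).symm

theorem schur : Cfsg.HasCyclicSchurMultiplier ↥Cfsg.Spor.J1 1 := by
  apply hasCyclic_one
  intro p hp hpd E _ _ τ z h
  have h2 : p = 2 := by
    rw [card_J1] at hpd
    by_contra hne
    have e : 175560 = 2 ^ 3 * 21945 := by norm_num
    rw [e] at hpd
    have hcop : Nat.Coprime (p ^ 2) (2 ^ 3) := Nat.Coprime.pow _ _ ((Nat.coprime_primes hp Nat.prime_two).mpr hne)
    have h1 : p ^ 2 ∣ 21945 := hcop.dvd_of_dvd_mul_left hpd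
    have h3 : p ∣ 3 * (5 * (7 * (11 * 19))) := (dvd_pow_self p two_ne_zero).trans (by norm_num; exact h1)
    have hpc : p = 3 ∨ p = 5 ∨ p = 7 ∨ p = 11 ∨ p = 19 := by
      rcases (Nat.Prime.dvd_mul hp).mp h3 with h | h
      · exact Or.inl ((Nat.prime_dvd_prime_iff_eq hp (by norm_num)).mp h)
      rcases (Nat.Prime.dvd_mul hp).mp h with h | h
      · exact Or.inr (Or.inl ((Nat.prime_dvd_prime_iff_eq hp (by norm_num)).mp h))
      rcases (Nat.Prime.dvd_mul hp).mp h with h | h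
      · exact Or.inr (Or.inr (Or.inl ((Nat.prime_dvd_prime_iff_eq hp (by norm_num)).mp h)))
      rcases (Nat.Prime.dvd_mul hp).mp h with h | h
      · exact Or.inr (Or.inr (Or.inr (Or.inl ((Nat.prime_dvd_prime_iff_eq hp (by norm_num)).mp h))))
      · exact Or.inr (Or.inr (Or.inr (Or.inr ((Nat.prime_dvd_prime_iff_eq hp (by norm_num)).mp h))))
    rcases hpc with rfl | rfl | rfl | rfl | rfl <;> revert h1 <;> norm_num
  subst h2
  exact schur2 h

end Cfsg.Agent.H22.J1
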